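import Cfsg.Agent.H169.RG.Pair
import Cfsg.Agent.H398.RG.Line

/-!
# S3509, the class K2: a centraliser with a theta-twisted `A₂` and two `A₂` swapped by theta (helper558)

The frame of `H169/RG/Pair.lean`, simply laced; `K : KTwo ..` : `a, a'` a base of the twisted `A₂` (`θ a = a'`),
`b` the top of a moved component.

* `dec_Up` : the elements of `Up` are products over `X_a X_a' X_(a+a')` and the rest;
* `star` : an involution of `PP0` commuting with a nontrivial element of `X_(-b) X_(-θb)` is in `X_(a+a')`;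
* `comm12` : the fixed elements of `X_(a+a')` commute with all conjugates of the elements of `X_b X_(θb)` in the centraliser.
-/

set_option autoImplicit false
set_option linter.unusedSectionVars false

namespace Cfsg.Agent.H558.RG

open CoxeterSystem Cfsg.Agent.ChevalleyStructure.CoxeterGeom Cfsg.Agent.Tits.Roots Cfsg.Agent.Tits.Core
  Cfsg.Agent.Tits.RootComb Cfsg.Agent.Tits.Exchange Cfsg.Agent.Nodes.Reps Cfsg.Agent.Nodes.BNOf
  Cfsg.Agent.Nodes.StabComb Cfsg.Agent.Nodes.Bruhat Cfsg.Agent.Nodes.OppDec Cfsg.Agent.Nodes.LeviDec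
  Cfsg.Agent.Nodes.NormalForm Cfsg.Agent.Nodes.SubComb Cfsg.Agent.Nodes.Coroot Cfsg.Agent.KFacts.RgdField
  Cfsg.Agent.KFacts.RgdSL
  Cfsg.Agent.BpExc.TorCent Cfsg.Agent.BpExc.Tow Cfsg.Agent.BpExc.Fr Cfsg.Agent.BpExc.Pair Cfsg.Agent.H28.RG
  Cfsg.Agent.H441.RG Cfsg.Agent.H169.RG
open Cfsg.Agent.GenExc (CommOK)
open scoped commutatorElement

section Grp

variable {Y : Type*} [Group Y]

/-- products of a group and a normalised group -/
theorem mem_sup_norm {A B : Subgroup Y} (h : ∀ a ∈ A, ∀ b ∈ B, a * b * a⁻¹ ∈ B) {y : Y} (hy : y ∈ A ⊔ B) :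
    ∃ a ∈ A, ∃ b ∈ B, y = a * b := by
  let L : Subgroup Y :=
    { carrier := {y | ∃ a ∈ A, ∃ b ∈ B, y = a * b}
      mul_mem' := by
        rintro _ _ ⟨a, ha, b, hb, rfl⟩ ⟨a', ha', b', hb', rfl⟩
        refine ⟨a * a', mul_mem ha ha', a'⁻¹ * b * a' * b', mul_mem ?_ hb', by group⟩
        have := h a'⁻¹ (inv_mem ha') b hb
        rwa [inv_inv] at this
      one_mem' := ⟨1, one_mem _, 1, one_mem _, by group⟩
      inv_mem' := by
        rintro _ ⟨a, ha, b, hb, rfl⟩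
        exact ⟨a⁻¹, inv_mem ha, a * b⁻¹ * a⁻¹, h a ha _ (inv_mem hb), by group⟩ }
  have hA : A ≤ L := fun a ha => ⟨a, ha, 1, one_mem _, by group⟩
  have hB : B ≤ L := fun b hb => ⟨1, one_mem _, b, hb, by group⟩
  exact (sup_le hA hB) hy

end Grp

variable {I W Y : Type*} [Fintype I] [DecidableEq I] [Group W] [Finite W] [Group Y] {M : CoxeterMatrix I}
  {cs : CoxeterSystem M W} {A : I → I → ℤ} {h : IsCartan M A} {p : ℕ}
  {J : Type*} [Preorder J] {T : J → Subgroup Y} {n : I → Y} {X : J → (I → ℤ) → Subgroup Y}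
  {F : Type*} [Field F] {xx : (I → ℤ) → F → Y} {χ : (I → ℤ) → Y → F}

/-! ### roots -/

theorem not_root_add {x y : I → ℤ} (hy : IsRoot cs h y) (hx : IsRoot cs h x)
    (hs : SL cs h) (hc : 0 ≤ cpr cs h x y) : ¬ IsRoot cs h (x + y) := by
  intro hr
  have h1 : x + y = y := hs.eq_of_cpr hr hy (by rw [cpr_add cs h _ _ hy, cpr_self cs h hy]; omega)
  have h2 : x = 0 := by simpa using h1
  exact hx.ne_zero h2

theorem ne_neg_of_cpr {x y : I → ℤ} (hy : IsRoot cs h y) (hc : 0 ≤ cpr cs h x y) : x ≠ -y := by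
  rintro rfl
  rw [cpr_neg_left _ hy, cpr_self cs h hy] at hc
  omega

/-- The data of the class K2. -/
structure KTwo (cs : CoxeterSystem M W) (h : IsCartan M A) (S : Set (I → ℤ)) (θ : (I → ℤ) ≃+ (I → ℤ))
    (a a' b : I → ℤ) : Prop where
  ha : a ∈ S
  ha' : a' ∈ S
  pa : 0 ≤ a
  pa' : 0 ≤ a'
  ta : θ a = a'
  ta' : θ a' = a
  hr : IsRoot cs h (a + a')
  iso : ∀ c ∈ S, 0 ≤ c → c ≠ a → c ≠ a' → c ≠ a + a' → cpr cs h c a = 0 ∧ cpr cs h c a' = 0
  hb : b ∈ S
  pb : 0 ≤ b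
  ttb : θ (θ b) = b
  nb : θ b ≠ b
  ob : cpr cs h b (θ b) = 0
  top : ∀ c ∈ S, 0 ≤ c → ¬ IsRoot cs h (b + c)
  neg : ∀ c ∈ S, 0 ≤ c → c ≠ a → c ≠ a' → c ≠ a + a' → c ≠ b → c ≠ θ b →
    (cpr cs h c b = 1 ∧ cpr cs h c (θ b) = 0) ∨ (cpr cs h c b = 0 ∧ cpr cs h c (θ b) = 1)
  uniq : ∀ c ∈ S, 0 ≤ c → θ c = c → c = a + a'

/-- the positive roots outside the twisted component -/
def S2 (S : Set (I → ℤ)) (a a' : I → ℤ) : Set (I → ℤ) := {c | c ∈ S ∧ 0 ≤ c ∧ c ≠ a ∧ c ≠ a' ∧ c ≠ a + a'}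

section Fr

variable (H : Tow cs h p T n X) (C : Coords cs h (TL T) n (XL X) xx χ)
  {α : MulAut Y} {θ : (I → ℤ) ≃+ (I → ℤ)} (Fα : Fr cs h (TL T) (XL X) α θ)
  {t : Y} (Dt : CW cs h T X χ θ t) (hs : SL cs h) {a a' b : I → ℤ} (K : KTwo cs h (Sx cs h χ t) θ a a' b)

include H in
theorem XL_injective {c d : I → ℤ} (hc : IsRoot cs h c) (hd : IsRoot cs h d) {u : Y} (hu : u ≠ 1)
    (huc : u ∈ XL X c) (hud : u ∈ XL X d) : c = d := by
  by_contra hcd
  obtain ⟨j, hj⟩ := H.mem_XL.1 huc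
  obtain ⟨j', hj'⟩ := H.mem_XL.1 hud
  obtain ⟨i, hi, hi'⟩ := H.dir j j'
  have h1 := X_inf_X (H.rgd i) hc hd hcd
  apply hu
  rw [← Subgroup.mem_bot, ← h1]
  exact ⟨H.monoX c hi hj, H.monoX d hi' hj'⟩

include K hs in
theorem KTwo.cpr_aa : cpr cs h a a' = -1 := by
  have ra := K.ha.1
  have ra' := K.ha'.1
  rcases hs.cases ra ra' with ⟨h1, h2⟩ | ⟨h1, h2⟩ | ⟨h1, h2, h3, h4⟩
  · exact absurd K.hr (not_root_add ra' ra hs (by omega))
  · exfalso
    rw [h1] at ra
    have h3 := K.pa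
    rw [h1] at h3
    exact ra'.not_pos_neg K.pa' (neg_nonneg.1 h3)
  · by_contra h5
    exact not_root_add ra' ra hs (by omega) K.hr

include K hs in
theorem KTwo.a2 : A2 cs h a a' := hs.a2 K.ha.1 K.ha'.1 (K.cpr_aa hs)

include K in
theorem KTwo.tsum : θ (a + a') = a + a' := by rw [map_add, K.ta, K.ta', add_comm]

include K in
theorem KTwo.psum : 0 ≤ a + a' := add_nonneg K.pa K.pa'

include Dt K C in
theorem KTwo.msum : a + a' ∈ Sx cs h χ t := by
  refine ⟨K.hr, ?_⟩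
  obtain ⟨φ, h0, hadd, hφ⟩ := Dt.hA t Dt.ht
  rw [hφ _ K.hr, hadd, ← hφ a K.ha.1, ← hφ a' K.ha'.1, K.ha.2, K.ha'.2, one_mul]

include K in
theorem KTwo.mS2 {c : I → ℤ} (hc : c ∈ S2 (Sx cs h χ t) a a') :
    cpr cs h c a = 0 ∧ cpr cs h c a' = 0 ∧ cpr cs h c (a + a') = 0 := by
  obtain ⟨h1, h2, h3, h4, h5⟩ := hc
  obtain ⟨h6, h7⟩ := K.iso c h1 h2 h3 h4 h5
  refine ⟨h6, h7, ?_⟩
  rw [cpr_zero_comm cs h h1.1 K.hr, cpr_add cs h _ _ h1.1]
  rw [cpr_zero_comm cs h h1.1 K.ha.1] at h6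
  rw [cpr_zero_comm cs h h1.1 K.ha'.1] at h7
  rw [h6, h7, add_zero]

include K hs in
/-- `b ∈ S2` -/
theorem KTwo.bS2 : b ∈ S2 (Sx cs h χ t) a a' := by
  have h0 := K.cpr_aa hs
  refine ⟨K.hb, K.pb, ?_, ?_, ?_⟩
  · intro e
    have h1 := K.ob
    rw [e, K.ta, h0] at h1
    omega
  · intro e
    have h1 := K.ob
    rw [e, K.ta', hs _ _ K.ha'.1 K.ha.1, h0] at h1
    omega
  · intro e
    apply K.nb
    rw [e]
    exact K.tsum

include Dt in
theorem theta_mem {c : I → ℤ} (hc : c ∈ Sx cs h χ t) : θ c ∈ Sx cs h χ t := (Dt.hS c).2 hc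

include K hs Dt in
theorem KTwo.tbS2 : θ b ∈ S2 (Sx cs h χ t) a a' := by
  obtain ⟨h1, h2, h3, h4, h5⟩ := K.bS2 hs
  refine ⟨theta_mem Dt h1, Dt.hpos b h1 h2, ?_, ?_, ?_⟩
  · intro e
    apply h4
    rw [← K.ttb, e, K.ta]
  · intro e
    apply h3
    rw [← K.ttb, e, K.ta']
  · intro e
    apply h5
    rw [← K.ttb, e, K.tsum]

/-- orthogonal root groups commute -/
theorem comm_orth (hcom : CommOK cs h (XL X)) (hs : SL cs h) {c d : I → ℤ} (hc : IsRoot cs h c) (hd : IsRoot cs h d)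
    (h0 : 0 ≤ cpr cs h c d) {u v : Y} (hu : u ∈ XL X c) (hv : v ∈ XL X d) : u * v = v * u :=
  hcom c d hc hd (ne_neg_of_cpr hd h0) (not_root_add hd hc hs h0) u hu v hv

include K hs Dt in
/-- `S2` commutes with the component, both signs -/
theorem KTwo.comm_S2 {c d : I → ℤ} (hc : c ∈ S2 (Sx cs h χ t) a a') (hd : d = a ∨ d = a' ∨ d = a + a' ∨ d = -(a + a'))
    {u v : Y} (hu : u ∈ XL X c) (hv : v ∈ XL X d) : u * v = v * u := by
  obtain ⟨h1, h2, h3⟩ := K.mS2 hc
  rcases hd with rfl | rfl | rfl | rfl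
  · exact comm_orth Dt.hcom hs hc.1.1 K.ha.1 (by omega) hu hv
  · exact comm_orth Dt.hcom hs hc.1.1 K.ha'.1 (by omega) hu hv
  · exact comm_orth Dt.hcom hs hc.1.1 K.hr (by omega) hu hv
  · exact comm_orth Dt.hcom hs hc.1.1 K.hr.neg (by rw [cpr_neg_right cs h _ K.hr]; omega) hu hv

/-- an element commuting with a family of root groups commutes with the group they generate -/
theorem comm_Sup {S : Set (I → ℤ)} {v : Y} (hS : ∀ c ∈ S, ∀ u ∈ XL X c, u * v = v * u) {u : Y}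
    (hu : u ∈ RGD.Sup (XL X) S) : u * v = v * u := by
  have h1 : RGD.Sup (XL X) S ≤ Subgroup.centralizer {v} := RGD.Sup_le fun c hc y hy =>
    Subgroup.mem_centralizer_singleton_iff.2 (hS c hc y hy)
  exact Subgroup.mem_centralizer_singleton_iff.1 (h1 hu)

include K hs Dt H in
/-- **The elements of `Up`.** -/
theorem KTwo.dec_Up {u : Y} (hu : u ∈ Up cs h X χ t) :
    ∃ x ∈ XL X a, ∃ x' ∈ XL X a', ∃ y ∈ XL X (a + a'), ∃ u2 ∈ RGD.Sup (XL X) (S2 (Sx cs h χ t) a a'),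
      u = x * (x' * (y * u2)) := by
  have hA := K.a2 hs
  set R := RGD.Sup (XL X) (S2 (Sx cs h χ t) a a') with hR
  have cR : ∀ d, (d = a ∨ d = a' ∨ d = a + a' ∨ d = -(a + a')) → ∀ v ∈ XL X d, ∀ r ∈ R, r * v = v * r := by
    intro d hd v hv r hr
    exact comm_Sup (fun c hc u hu => K.comm_S2 Dt hs hc hd hu hv) hr
  have h1 : Up cs h X χ t ≤ XL X a ⊔ (XL X a' ⊔ (XL X (a + a') ⊔ R)) := by
    refine RGD.Sup_le fun c hc => ?_
    by_cases e1 : c = a
    · rw [e1]; exact le_sup_left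
    by_cases e2 : c = a'
    · rw [e2]; exact le_sup_left.trans le_sup_right
    by_cases e3 : c = a + a'
    · rw [e3]; exact (le_sup_left.trans le_sup_right).trans le_sup_right
    · refine (RGD.le_Sup (S := S2 (Sx cs h χ t) a a') ⟨hc.1, hc.2, e1, e2, e3⟩).trans ?_
      exact (le_sup_right.trans le_sup_right).trans le_sup_right
  -- `X_(a+a')` commutes with the rest
  have c1 : ∀ y ∈ XL X (a + a'), ∀ r ∈ R, y * r * y⁻¹ ∈ R := by
    intro y hy r hr
    rw [← cR _ (Or.inr (Or.inr (Or.inl rfl))) y hy r hr, mul_inv_cancel_right]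
    exact hr
  have c2 : ∀ x' ∈ XL X a', ∀ z ∈ XL X (a + a') ⊔ R, x' * z = z * x' := by
    intro x' hx' z hz
    have h2 : XL X (a + a') ⊔ R ≤ Subgroup.centralizer {x'} := by
      refine sup_le (fun y hy => ?_) (fun r hr => ?_)
      · exact Subgroup.mem_centralizer_singleton_iff.2 (H398.RG.commL_right H hA hy hx')
      · exact Subgroup.mem_centralizer_singleton_iff.2 (cR _ (Or.inr (Or.inl rfl)) x' hx' r hr)
    exact (Subgroup.mem_centralizer_singleton_iff.1 (h2 hz)).symm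
  have c3 : ∀ x ∈ XL X a, ∀ z ∈ XL X a' ⊔ (XL X (a + a') ⊔ R), x * z * x⁻¹ ∈ XL X a' ⊔ (XL X (a + a') ⊔ R) := by
    intro x hx
    have h2 : XL X a' ⊔ (XL X (a + a') ⊔ R) ≤ (XL X a' ⊔ (XL X (a + a') ⊔ R)).comap (MulAut.conj x).toMonoidHom := by
      refine sup_le (fun x' hx' => ?_) (sup_le (fun y hy => ?_) (fun r hr => ?_))
      · change x * x' * x⁻¹ ∈ XL X a' ⊔ (XL X (a + a') ⊔ R)
        have e : x * x' * x⁻¹ = ⁅x, x'⁆ * x' := by rw [commutatorElement_def]; group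
        rw [e]
        exact mul_mem (Subgroup.mem_sup_right (Subgroup.mem_sup_left (H398.RG.commL_mem H hA hx hx')))
          (Subgroup.mem_sup_left hx')
      · change x * y * x⁻¹ ∈ XL X a' ⊔ (XL X (a + a') ⊔ R)
        have e : y * x = x * y := by
          have hA' := hA.symm
          refine H398.RG.commL_right H hA' ?_ hx
          rw [add_comm]; exact hy
        rw [← e, mul_inv_cancel_right]
        exact Subgroup.mem_sup_right (Subgroup.mem_sup_left hy)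
      · change x * r * x⁻¹ ∈ XL X a' ⊔ (XL X (a + a') ⊔ R)
        rw [← cR _ (Or.inl rfl) x hx r hr, mul_inv_cancel_right]
        exact Subgroup.mem_sup_right (Subgroup.mem_sup_right hr)
    exact fun z hz => h2 hz
  obtain ⟨x, hx, z, hz, rfl⟩ := mem_sup_norm c3 (h1 hu)
  obtain ⟨x', hx', w, hw, rfl⟩ := mem_sup_norm (fun x' hx' z hz => by
    rw [c2 x' hx' z hz, mul_inv_cancel_right]; exact hz) hz
  obtain ⟨y, hy, u2, hu2, rfl⟩ := mem_sup_norm c1 hw
  exact ⟨x, hx, x', hx', y, hy, u2, hu2, rfl⟩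

include K hs Dt C in
/-- tops commute with the positive part -/
theorem KTwo.top_comm {d : I → ℤ} (hd : d = b ∨ d = θ b ∨ d = a + a') {u v : Y} (hu : u ∈ Up cs h X χ t)
    (hv : v ∈ XL X d) : u * v = v * u := by
  have hdS : d ∈ Sx cs h χ t ∧ 0 ≤ d ∧ ∀ c ∈ Sx cs h χ t, 0 ≤ c → ¬ IsRoot cs h (d + c) := by
    rcases hd with rfl | rfl | rfl
    · exact ⟨K.hb, K.pb, K.top⟩
    · refine ⟨theta_mem Dt K.hb, Dt.hpos b K.hb K.pb, fun c hc h0 hr => ?_⟩
      have hc' : θ c ∈ Sx cs h χ t := theta_mem Dt hc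
      have hp' := Dt.hpos c hc h0
      have hr' : θ b + c ∈ Sx cs h χ t := by
        refine ⟨hr, ?_⟩
        obtain ⟨φ, h0, hadd, hφ⟩ := Dt.hA t Dt.ht
        rw [hφ _ hr, hadd, ← hφ _ (theta_mem Dt K.hb).1, ← hφ c hc.1, (theta_mem Dt K.hb).2, hc.2, one_mul]
      have h2 := theta_mem Dt hr'
      rw [map_add, K.ttb] at h2
      exact K.top _ hc' hp' h2.1
    · refine ⟨K.msum C Dt, K.psum, fun c hc h0 => ?_⟩
      have h0' := K.cpr_aa hs
      by_cases e1 : c = a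
      · rw [e1, add_comm]
        refine not_root_add K.hr K.ha.1 hs ?_
        rw [hs _ _ K.ha.1 K.hr, cpr_add cs h _ _ K.ha.1, cpr_self cs h K.ha.1, hs _ _ K.ha'.1 K.ha.1, h0']
        norm_num
      by_cases e2 : c = a'
      · rw [e2, add_comm]
        refine not_root_add K.hr K.ha'.1 hs ?_
        rw [hs _ _ K.ha'.1 K.hr, cpr_add cs h _ _ K.ha'.1, cpr_self cs h K.ha'.1, h0']
        norm_num
      by_cases e3 : c = a + a'
      · rw [e3]
        refine not_root_add K.hr K.hr hs ?_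
        rw [cpr_self cs h K.hr]; norm_num
      · rw [add_comm]
        refine not_root_add K.hr hc.1 hs ?_
        rw [(K.mS2 ⟨hc, h0, e1, e2, e3⟩).2.2]
  refine comm_Sup (fun c hc u hu => ?_) hu
  refine Dt.hcom c d hc.1.1 hdS.1.1 (ne_neg_of_pos hc.1.1 hc.2 hdS.2.1) ?_ u hu v hv
  rw [add_comm]
  exact hdS.2.2 c hc.1 hc.2


include K Dt in
/-- the top property of `θ b` -/
theorem KTwo.top' : ∀ c ∈ Sx cs h χ t, 0 ≤ c → ¬ IsRoot cs h (θ b + c) := by
  intro c hc h0 hr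
  have hc' : θ c ∈ Sx cs h χ t := theta_mem Dt hc
  have hp' := Dt.hpos c hc h0
  have hr' : θ b + c ∈ Sx cs h χ t := by
    refine ⟨hr, ?_⟩
    obtain ⟨φ, h0, hadd, hφ⟩ := Dt.hA t Dt.ht
    rw [hφ _ hr, hadd, ← hφ _ (theta_mem Dt K.hb).1, ← hφ c hc.1, (theta_mem Dt K.hb).2, hc.2, one_mul]
  have h2 := theta_mem Dt hr'
  rw [map_add, K.ttb] at h2
  exact K.top _ hc' hp' h2.1

include C Dt in
theorem Sx_sub {c d : I → ℤ} (hc : c ∈ Sx cs h χ t) (hd : d ∈ Sx cs h χ t) (hr : IsRoot cs h (c - d)) :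
    c - d ∈ Sx cs h χ t := by
  refine ⟨hr, ?_⟩
  have hd' : -d ∈ Sx cs h χ t := chi_neg C Dt.ht Dt.hA hd
  obtain ⟨φ, h0, hadd, hφ⟩ := Dt.hA t Dt.ht
  rw [hφ _ hr, sub_eq_add_neg, hadd, ← hφ _ hc.1, ← hφ _ hd'.1, hc.2, hd'.2, one_mul]

include K hs Dt C in
/-- the product of the reflections in `b`, `θ b` makes `S2` negative -/
theorem KTwo.neg_S2 {s s' : W} (h1 : ∀ y, rep cs h s y = y - cpr cs h y b • b)
    (h2 : ∀ y, rep cs h s' y = y - cpr cs h y (θ b) • θ b) {c : I → ℤ} (hc : c ∈ S2 (Sx cs h χ t) a a') :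
    rep cs h (s * s') c ≤ 0 := by
  have rb := K.hb.1
  have rb' := (theta_mem Dt K.hb).1
  have ob' : cpr cs h (θ b) b = 0 := by rw [hs _ _ rb' rb, K.ob]
  have e : rep cs h (s * s') c = c - cpr cs h c (θ b) • θ b - cpr cs h c b • b := by
    rw [rep_mul_apply, h2, h1]
    congr 2
    rw [sub_eq_add_neg, cpr_add cs h _ _ rb, cpr_neg_left _ rb, cpr_smul cs h _ _ rb, ob', mul_zero, neg_zero,
      add_zero]
  rw [e]
  by_cases e1 : c = b
  · rw [e1, K.ob, cpr_self cs h rb, zero_smul, sub_zero, two_smul]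
    have := K.pb
    intro i
    have h3 := this i
    simp only [Pi.sub_apply, Pi.add_apply, Pi.zero_apply] at h3 ⊢
    omega
  by_cases e2 : c = θ b
  · rw [e2, ob', cpr_self cs h rb', zero_smul, sub_zero, two_smul]
    have := Dt.hpos b K.hb K.pb
    intro i
    have h3 := this i
    simp only [Pi.sub_apply, Pi.add_apply, Pi.zero_apply] at h3 ⊢
    omega
  rcases K.neg c hc.1 hc.2.1 hc.2.2.1 hc.2.2.2.1 hc.2.2.2.2 e1 e2 with ⟨k1, k2⟩ | ⟨k1, k2⟩
  · rw [k1, k2, zero_smul, one_smul, sub_zero]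
    have hr := isRoot_sub hc.1.1 rb k1
    rcases hr.pos_or_neg with h0 | h0
    · exfalso
      refine K.top _ (Sx_sub C Dt hc.1 K.hb hr) h0 ?_
      rw [add_sub_cancel]
      exact hc.1.1
    · exact h0
  · rw [k1, k2, zero_smul, one_smul, sub_zero]
    have hr := isRoot_sub hc.1.1 rb' k2
    rcases hr.pos_or_neg with h0 | h0
    · exfalso
      refine K.top' Dt _ (Sx_sub C Dt hc.1 (theta_mem Dt K.hb) hr) h0 ?_
      rw [add_sub_cancel]
      exact hc.1.1
    · exact h0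

include K hs Dt in
/-- the groups of `±b`, `±θb` commute with the positive part of the component -/
theorem KTwo.comm_b {c d : I → ℤ} (hc : c = b ∨ c = -b ∨ c = θ b ∨ c = -θ b) (hd : d = a ∨ d = a' ∨ d = a + a')
    {u v : Y} (hu : u ∈ XL X c) (hv : v ∈ XL X d) : u * v = v * u := by
  obtain ⟨h1, h2, h3⟩ := K.mS2 (K.bS2 hs)
  obtain ⟨h4, h5, h6⟩ := K.mS2 (K.tbS2 Dt hs)
  have rb := K.hb.1
  have rb' := (theta_mem Dt K.hb).1
  have rd : IsRoot cs h d := by
    rcases hd with rfl | rfl | rfl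
    exacts [K.ha.1, K.ha'.1, K.hr]
  have rc : IsRoot cs h c := by
    rcases hc with rfl | rfl | rfl | rfl
    exacts [rb, rb.neg, rb', rb'.neg]
  refine comm_orth Dt.hcom hs rc rd ?_ hu hv
  have e1 : cpr cs h b d = 0 := by
    rcases hd with rfl | rfl | rfl
    exacts [h1, h2, h3]
  have e2 : cpr cs h (θ b) d = 0 := by
    rcases hd with rfl | rfl | rfl
    exacts [h4, h5, h6]
  rcases hc with rfl | rfl | rfl | rfl
  · rw [e1]
  · rw [cpr_neg_left _ rd, e1, neg_zero]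
  · rw [e2]
  · rw [cpr_neg_left _ rd, e2, neg_zero]

include K hs Dt C H in
/-- **An element of `Up` commuting with an element of the opposite of the two moved components.** -/
theorem KTwo.star {u m m' : Y} (hu : u ∈ Up cs h X χ t) (hm : m ∈ XL X (-b)) (hm1 : m ≠ 1)
    (hm' : m' ∈ XL X (-θ b)) (hm1' : m' ≠ 1) (hc : u * (m * m') = (m * m') * u) :
    ∃ x ∈ XL X a, ∃ x' ∈ XL X a', ∃ y ∈ XL X (a + a'), u = x * (x' * y) := by
  obtain ⟨x, hx, x', hx', y, hy, u2, hu2, e⟩ := K.dec_Up H Dt hs hu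
  have rb := K.hb.1
  have rb' := (theta_mem Dt K.hb).1
  obtain ⟨j, hj, hj'⟩ := H398.RG.exists_level2 H hm hm'
  obtain ⟨s, hs1, a1, ha1, b1, hb1, k, hk, ek⟩ := exists_mu (H.rgd j) rb.neg hj hm1
  obtain ⟨s', hs1', a1', ha1', b1', hb1', k', hk', ek'⟩ := exists_mu (H.rgd j) rb'.neg hj' hm1'
  rw [neg_neg] at ha1 hb1 ha1' hb1'
  have la1 := le_XL j _ ha1
  have lb1 := le_XL j _ hb1
  have la1' := le_XL j _ ha1'
  have lb1' := le_XL j _ hb1'
  have h1 : ∀ y, rep cs h s y = y - cpr cs h y b • b := by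
    intro y
    rw [hs1, cpr_neg_right cs h _ rb, neg_smul, smul_neg, neg_neg]
  have h2 : ∀ y, rep cs h s' y = y - cpr cs h y (θ b) • θ b := by
    intro y
    rw [hs1', cpr_neg_right cs h _ rb', neg_smul, smul_neg, neg_neg]
  -- commuting pairs
  have ob' : cpr cs h (θ b) b = 0 := by rw [hs _ _ rb' rb, K.ob]
  have q1 : b1 * a1' = a1' * b1 := comm_orth Dt.hcom hs rb rb' (by rw [K.ob]) lb1 la1'
  have q2 : m * a1' = a1' * m := comm_orth Dt.hcom hs rb.neg rb' (by rw [cpr_neg_left _ rb', K.ob, neg_zero]) hm la1'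
  have q3 : b1 * m' = m' * b1 := comm_orth Dt.hcom hs rb rb'.neg (by rw [cpr_neg_right cs h _ rb', K.ob, neg_zero]) lb1 hm'
  have ekk : k * k' = (a1 * a1') * (m * m') * (b1 * b1') := by
    calc k * k' = a1 * m * (b1 * a1') * m' * b1' := by rw [ek, ek']; group
      _ = a1 * (m * a1') * (b1 * m') * b1' := by rw [q1]; group
      _ = (a1 * a1') * (m * m') * (b1 * b1') := by rw [q2, q3]; group
  have t1 : u * a1 = a1 * u := K.top_comm C Dt hs (Or.inl rfl) hu la1
  have t2 : u * b1 = b1 * u := K.top_comm C Dt hs (Or.inl rfl) hu lb1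
  have t3 : u * a1' = a1' * u := K.top_comm C Dt hs (Or.inr (Or.inl rfl)) hu la1'
  have t4 : u * b1' = b1' * u := K.top_comm C Dt hs (Or.inr (Or.inl rfl)) hu lb1'
  have hc2 : Commute u (k * k') := by
    rw [ekk]
    exact (((show Commute u a1 from t1).mul_right t3).mul_right hc).mul_right
      ((show Commute u b1 from t2).mul_right t4)
  -- the component commutes with `k k'`
  have key : ∀ d, (d = a ∨ d = a' ∨ d = a + a') → ∀ v ∈ XL X d, Commute v (k * k') := by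
    intro d hd v hv
    rw [ekk]
    have c1 : Commute v a1 := (K.comm_b Dt hs (Or.inl rfl) hd la1 hv).symm
    have c2 : Commute v b1 := (K.comm_b Dt hs (Or.inl rfl) hd lb1 hv).symm
    have c3 : Commute v a1' := (K.comm_b Dt hs (Or.inr (Or.inr (Or.inl rfl))) hd la1' hv).symm
    have c4 : Commute v b1' := (K.comm_b Dt hs (Or.inr (Or.inr (Or.inl rfl))) hd lb1' hv).symm
    have c5 : Commute v m := (K.comm_b Dt hs (Or.inr (Or.inl rfl)) hd hm hv).symm
    have c6 : Commute v m' := (K.comm_b Dt hs (Or.inr (Or.inr (Or.inr rfl))) hd hm' hv).symm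
    exact ((c1.mul_right c3).mul_right (c5.mul_right c6)).mul_right (c2.mul_right c4)
  have hg : Commute (x * (x' * y)) (k * k') :=
    (key _ (Or.inl rfl) x hx).mul_left ((key _ (Or.inr (Or.inl rfl)) x' hx').mul_left
      (key _ (Or.inr (Or.inr rfl)) y hy))
  have e2 : u2 = (x * (x' * y))⁻¹ * u := by rw [e]; group
  have hu2c : Commute u2 (k * k') := by
    rw [e2]
    exact (hg.inv_left).mul_left hc2
  have hR : Rp cs H.nsys (s * s') (k * k') := (H.rp_up hk).mul (H.rp_up hk')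
  have hneg := conj_SupL H hR (S := S2 (Sx cs h χ t) a a') (S' := Neg cs h) (fun x hx => hx.1.1)
    (fun x hx => ⟨hx.1.1.act _, K.neg_S2 C Dt hs h1 h2 hx⟩) hu2
  have e3 : k * k' * u2 * (k * k')⁻¹ = u2 := by rw [← hu2c.eq, mul_inv_cancel_right]
  rw [e3] at hneg
  have h3 := eq_one_of_pos_neg H (RGD.Sup_mono (S := S2 (Sx cs h χ t) a a') (S' := RGD.Pos cs h)
    (fun x hx => ⟨hx.1.1, hx.2.1⟩) hu2) hneg
  refine ⟨x, hx, x', hx', y, hy, ?_⟩
  rw [e, h3, mul_one]

include C in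
/-- characteristic two -/
theorem sq_one (h2 : (2 : F) = 0) {c : I → ℤ} (hc : IsRoot cs h c) {v : Y} (hv : v ∈ XL X c) : v * v = 1 := by
  obtain ⟨s, rfl⟩ := ((C.coord c hc).mem v).1 hv
  rw [← (C.coord c hc).add, ← two_mul, h2, zero_mul, (C.coord c hc).zero]

include C in
theorem comm_same {c : I → ℤ} (hc : IsRoot cs h c) {v w : Y} (hv : v ∈ XL X c) (hw : w ∈ XL X c) :
    v * w = w * v := by
  obtain ⟨s, rfl⟩ := ((C.coord c hc).mem v).1 hv
  obtain ⟨s', rfl⟩ := ((C.coord c hc).mem w).1 hw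
  rw [← (C.coord c hc).add, ← (C.coord c hc).add, add_comm]

include K hs Dt C H Fα in
/-- **The involutions.** -/
theorem KTwo.invol (h2 : (2 : F) = 0) {u x x' y : Y} (hα : α u = u) (hu2 : u * u = 1) (hx : x ∈ XL X a)
    (hx' : x' ∈ XL X a') (hy : y ∈ XL X (a + a')) (e : u = x * (x' * y)) : u ∈ XL X (a + a') := by
  have hA := K.a2 hs
  have hA' := hA.symm
  have ra := K.ha.1
  have ra' := K.ha'.1
  have rs := K.hr
  have y1 : y * x' = x' * y := H398.RG.commL_right H hA hy hx'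
  have y2 : y * x = x * y := H398.RG.commL_right H hA' (by rw [add_comm]; exact hy) hx
  have yy := sq_one C h2 rs hy
  have xx' := sq_one C h2 ra hx
  have xx'' := sq_one C h2 ra' hx'
  have hcm : ⁅x, x'⁆ = 1 := by
    have e1 : x⁻¹ = x := inv_eq_of_mul_eq_one_left xx'
    have e2 : x'⁻¹ = x' := inv_eq_of_mul_eq_one_left xx''
    rw [commutatorElement_def, e1, e2]
    calc x * x' * x * x' = x * x' * x * x' * (y * y) := by rw [yy, mul_one]
      _ = x * x' * x * (x' * y) * y := by group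
      _ = x * x' * (x * y) * x' * y := by rw [← y1]; group
      _ = x * (x' * y) * x * x' * y := by rw [← y2]; group
      _ = u * u := by rw [e]; group
      _ = 1 := hu2
  have hαy : α y ∈ XL X (a + a') := by
    have := (Fα.map (a + a') rs y).2 hy
    rwa [K.tsum] at this
  have hαx : α x ∈ XL X a' := by
    have := (Fα.map a ra x).2 hx
    rwa [K.ta] at this
  have hαx' : α x' ∈ XL X a := by
    have := (Fα.map a' ra' x').2 hx'
    rwa [K.ta'] at this
  by_cases h1 : x = 1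
  · have e3 : α x' * α y = x' * y := by
      rw [← map_mul]
      have : x' * y = u := by rw [e, h1, one_mul]
      rw [this, hα]
    have e4 : α x' = x' * (y * (α y)⁻¹) := by
      rw [← mul_assoc, ← e3, mul_inv_cancel_right]
    obtain ⟨w, hw, hw1⟩ : ∃ w ∈ XL X a', w ≠ 1 :=
      ⟨xx a' 1, ((C.coord a' ra').mem _).2 ⟨1, rfl⟩, (C.coord a' ra').ne_one one_ne_zero⟩
    have h3 : α x' = 1 := by
      by_contra h4
      apply H398.RG.commL_ne H hA hαx' h4 hw hw1
      rw [commutatorElement_eq_one_iff_mul_comm, e4]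
      have c1 : Commute x' w := comm_same C ra' hx' hw
      have c2 : Commute (y * (α y)⁻¹) w := H398.RG.commL_right H hA (mul_mem hy (inv_mem hαy)) hw
      exact (c1.mul_left c2)
    rw [map_eq_one_iff α α.injective] at h3
    rw [e, h1, h3, one_mul, one_mul]
    exact hy
  · have h3 : x' = 1 := by
      by_contra h4
      exact H398.RG.commL_ne H hA hx h1 hx' h4 hcm
    exfalso
    apply h1
    have e3 : α x * α y = x * y := by
      rw [← map_mul]
      have : x * y = u := by rw [e, h3, one_mul]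
      rw [this, hα]
    have e4 : α x = x * (y * (α y)⁻¹) := by
      rw [← mul_assoc, ← e3, mul_inv_cancel_right]
    obtain ⟨w, hw, hw1⟩ : ∃ w ∈ XL X a, w ≠ 1 :=
      ⟨xx a 1, ((C.coord a ra).mem _).2 ⟨1, rfl⟩, (C.coord a ra).ne_one one_ne_zero⟩
    have h5 : α x = 1 := by
      by_contra h4
      apply H398.RG.commL_ne H hA' hαx h4 hw hw1
      rw [commutatorElement_eq_one_iff_mul_comm, e4]
      have c1 : Commute x w := comm_same C ra hx hw
      have c2 : Commute (y * (α y)⁻¹) w := by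
        have h6 : y * (α y)⁻¹ ∈ XL X (a' + a) := by
          rw [add_comm a' a]
          exact mul_mem hy (inv_mem hαy)
        exact H398.RG.commL_right H hA' h6 hw
      exact (c1.mul_left c2)
    rwa [map_eq_one_iff α α.injective] at h5

include K hs Dt C H Fα in
/-- **The representatives in the centraliser fix `±(a + a')`.** -/
theorem KTwo.fixed_sum {w : W} {k : Y} (hk : Rp cs H.nsys w k) (hkt : k * t = t * k) (hαk : α k = k) {v : Y}
    (hv : v ∈ XL X (a + a')) (hv1 : v ≠ 1) (hαv : α v = v) :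
    rep cs h w (a + a') = a + a' ∨ rep cs h w (a + a') = -(a + a') := by
  have rs := K.hr
  have h1 : k * v * k⁻¹ ∈ XL X (rep cs h w (a + a')) := by
    have h2 : k * v * k⁻¹ ∈ cj k (XL X (a + a')) := conj_mem_cj.2 hv
    rwa [H.conj_rp hk rs] at h2
  have h2 : k * v * k⁻¹ ≠ 1 := fun e => hv1 (conj_eq_one_iff.1 e)
  have h3 : α (k * v * k⁻¹) = k * v * k⁻¹ := by rw [map_mul, map_mul, map_inv, hαk, hαv]
  have hms := K.msum C Dt
  have hvt : v * t = t * v := by
    have := comm_Up C Dt.ht (u := v) (RGD.le_Sup (S := SP cs h χ t) ⟨hms, K.psum⟩ hv)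
    exact this
  have h4 : (k * v * k⁻¹) * t = t * (k * v * k⁻¹) := comm_conj hkt hvt
  have h5 : rep cs h w (a + a') ∈ Sx cs h χ t :=
    mem_Sx_of_centralizer C Dt.ht (rs.act w) h1 h2 (Subgroup.mem_centralizer_singleton_iff.2 h4)
  have h6 : α (k * v * k⁻¹) ∈ XL X (θ (rep cs h w (a + a'))) := (Fα.map _ (rs.act w) _).2 h1
  rw [h3] at h6
  have h7 : θ (rep cs h w (a + a')) = rep cs h w (a + a') :=
    XL_injective H ((Fα.root _).2 (rs.act w)) (rs.act w) h2 h6 h1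
  rcases (rs.act w).pos_or_neg with h0 | h0
  · exact Or.inl (K.uniq _ h5 h0 h7)
  · right
    have h8 := K.uniq (-rep cs h w (a + a')) (chi_neg C Dt.ht Dt.hA h5) (neg_nonneg.2 h0) (by rw [map_neg, h7])
    exact neg_eq_iff_eq_neg.1 h8

include K hs Dt C H Fα in
/-- **The fixed elements of `X_(a+a')` commute with the conjugates of the elements of `X_b X_(θb)`.** -/
theorem KTwo.comm12 {c : Y} (hc : c * t = t * c) (hαc : α c = c) {v : Y} (hv : v ∈ XL X (a + a')) (hαv : α v = v)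
    {m m' : Y} (hm : m ∈ XL X b) (hm' : m' ∈ XL X (θ b)) :
    v * (c * (m * m') * c⁻¹) = (c * (m * m') * c⁻¹) * v := by
  by_cases hv1 : v = 1
  · rw [hv1, one_mul, mul_one]
  obtain ⟨w, u, hu, -, k, hk, hkt, hαk, z, hz, -, -, rfl⟩ := form_fixW H C Fα Dt hc hαc
  have z1 : z * m = m * z := K.top_comm C Dt hs (Or.inl rfl) hz hm
  have z2 : z * m' = m' * z := K.top_comm C Dt hs (Or.inr (Or.inl rfl)) hz hm'
  have u1 : Commute v u := (K.top_comm C Dt hs (Or.inr (Or.inr rfl)) hu hv).symm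
  have rb := K.hb.1
  have rb' := (theta_mem Dt K.hb).1
  have rs := K.hr
  have hsum := K.fixed_sum H C Fα Dt hs hk hkt hαk hv hv1 hαv
  have key : ∀ d, IsRoot cs h d → cpr cs h d (a + a') = 0 → ∀ g ∈ XL X d, Commute v (k * g * k⁻¹) := by
    intro d hd h0 g hg
    have h1 : k * g * k⁻¹ ∈ XL X (rep cs h w d) := by
      have h2 : k * g * k⁻¹ ∈ cj k (XL X d) := conj_mem_cj.2 hg
      rwa [H.conj_rp hk hd] at h2
    refine (comm_orth Dt.hcom hs (hd.act w) rs ?_ h1 hv).symm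
    have h3 := cpr_rep cs h w d rs
    rw [h0] at h3
    rcases hsum with h4 | h4
    · rw [h4] at h3; rw [h3]
    · rw [h4, cpr_neg_right cs h _ rs] at h3
      omega
  have k1 := key b rb (K.mS2 (K.bS2 hs)).2.2 m hm
  have k2 := key (θ b) rb' (K.mS2 (K.tbS2 Dt hs)).2.2 m' hm'
  have e : u * k * z * (m * m') * (u * k * z)⁻¹ = u * ((k * m * k⁻¹) * (k * m' * k⁻¹)) * u⁻¹ := by
    have e1 : z * (m * m') * z⁻¹ = m * m' := by
      have : Commute z (m * m') := (show Commute z m from z1).mul_right z2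
      rw [this.eq, mul_inv_cancel_right]
    calc u * k * z * (m * m') * (u * k * z)⁻¹ = u * k * (z * (m * m') * z⁻¹) * k⁻¹ * u⁻¹ := by group
      _ = _ := by rw [e1]; group
  rw [e]
  exact (u1.mul_right (k1.mul_right k2)).mul_right u1.inv_right

end Fr

end Cfsg.Agent.H558.RG
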